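import Cfsg.Agent.BG.Base6

/-!
Breadth and the derived subgroup of a `p`-group (helper2; Vaughan-Lee, Wiegold's conjecture after Skutin):
if `p ^ (n choose 2) < |X'|` then the elements of breadth at least `n` are not covered by a proper subgroup and
a subgroup of index at least three (`exists_breadth`).
-/

namespace Cfsg.Agent.LieM

open Subgroup Cfsg.Agent.BG
open scoped commutatorElement

variable {G : Type*} [Group G] [Finite G] {p : ℕ} {X C D H A B : Subgroup G} {x : G}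

theorem breadth_aux [C.Normal] (hC : IsCoatom C) (hx : x ∉ C) : ∃ H ≤ C,
    #(commutator G) ≤ #⁅C, C⁆ * H.relIndex C ∧ H.relIndex C ≤ C1[x].index ∧ ∀ c ∈ C, c ∉ H → C1[c] ≤ C := by
  let π := QuotientGroup.mk' ⁅C, C⁆
  have hc : ∀ a ∈ C, ∀ b ∈ C, π a * π b = π b * π a := fun a ha b hb =>
    commutatorElement_eq_one_iff_mul_comm.1 ((map_commutatorElement π a b).symm.trans
      ((QuotientGroup.eq_one_iff _).2 (commutator_mem_commutator ha hb)))
  have hm : ∀ c ∈ C, ⁅c, x⁆ ∈ C := fun c hc => by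
    rw [commutatorElement_def, mul_assoc, mul_assoc, ← mul_assoc x]
    exact C.mul_mem hc (Normal.conj_mem inferInstance _ (C.inv_mem hc) x)
  have htop : ∀ {K : Subgroup G} {y : G}, C ≤ K → y ∈ K → y ∉ C → ∀ g, g ∈ K := fun {K y} h1 h2 h3 g =>
    (hC.2 K (lt_of_le_of_ne h1 fun e => h3 (e ▸ h2))).ge (mem_top g)
  let θ : C →* G ⧸ ⁅C, C⁆ := MonoidHom.mk' (fun c => π ⁅(c : G), x⁆) fun a b => by
    rw [coe_mul, show ⁅(a : G) * b, x⁆ = a * ⁅(b : G), x⁆ * (a : G)⁻¹ * ⁅(a : G), x⁆ by group, map_mul, map_mul,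
      map_mul, hc _ a.2 _ (hm _ b.2), map_inv, mul_inv_cancel_right, hc _ (hm _ a.2) _ (hm _ b.2)]
  have hi : (θ.ker.map C.subtype).relIndex C = θ.ker.index := relIndex_map_subtype _
  refine ⟨θ.ker.map C.subtype, map_subtype_le _, ?_, ?_, fun c hcC hcH y hy => ?_⟩
  · have hn : (θ.range.comap π).Normal := normalizer_eq_top_iff.1 (top_le_iff.1 fun g _ => htop (K := N[θ.range.comap π])
      (fun c hcC => mem_norm_of_cj_le ?_) (mem_norm_of_cj_le ?_) hx g)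
    · have h1 : ⁅(⊤ : Subgroup G), ⊤⁆ ≤ θ.range.comap π := by
        let ρ := QuotientGroup.mk' (θ.range.comap π)
        have h2 : ∀ {a b}, ⁅a, b⁆ ∈ θ.range.comap π ↔ b ∈ C1[ρ a].comap ρ := fun {a b} => by
          rw [mem_comap (f := ρ), mem_cent1, eq_comm, ← commutatorElement_eq_one_iff_mul_comm, ← map_commutatorElement]
          exact (QuotientGroup.eq_one_iff _).symm
        have h3 : ∀ c ∈ C, ∀ g, ⁅c, g⁆ ∈ θ.range.comap π := fun c hcC g => h2.2 (htop (fun d hd => h2.1 (by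
          rw [mem_comap, (QuotientGroup.eq_one_iff _).2 (commutator_mem_commutator hcC hd) |> (show π _ = 1 from ·)]
          exact one_mem _)) (h2.1 ⟨⟨c, hcC⟩, rfl⟩) hx g)
        have h4 : ∀ {a b}, ⁅a, b⁆ ∈ θ.range.comap π → ⁅b, a⁆ ∈ θ.range.comap π := fun h => by
          rw [← commutatorElement_inv]; exact inv_mem h
        have h5 : ∀ g, ⁅x, g⁆ ∈ θ.range.comap π := fun g =>
          h2.2 (htop (fun d hd => h2.1 (h4 (h3 d hd x))) (h2.1 (by simp)) hx g)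
        exact commutator_le.2 fun a _ b _ => h2.2 (htop (fun d hd => h2.1 (h4 (h3 d hd a))) (h2.1 (h4 (h5 a))) hx b)
      rw [hi, index_ker]
      exact (card_le_of_le h1).trans (QuotientGroup.card_preimage_mk ⁅C, C⁆ (θ.range : Set (G ⧸ ⁅C, C⁆))).le
    · rintro _ ⟨g, ⟨d, hd⟩, rfl⟩
      refine ⟨d, hd.trans ?_⟩
      have : π c * π g = π g * π c := hd ▸ hc _ hcC _ (hm _ d.2)
      simp only [MulEquiv.coe_toMonoidHom, MulAut.conj_apply, map_mul, map_inv, this, mul_inv_cancel_right]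
    · rintro _ ⟨g, ⟨d, hd⟩, rfl⟩
      refine ⟨⟨x * d * x⁻¹, Normal.conj_mem inferInstance _ d.2 x⟩, ?_⟩
      have : π ⁅(d : G), x⁆ = π g := hd
      show π ⁅x * d * x⁻¹, x⁆ = π (x * g * x⁻¹)
      rw [show ⁅x * d * x⁻¹, x⁆ = x * ⁅(d : G), x⁆ * x⁻¹ by group, map_mul, map_mul, this, ← map_mul, ← map_mul]
  · refine le_trans (relIndex_le_of_le_left (H := C1[x] ⊓ C) (fun c hc' => ⟨⟨c, hc'.2⟩, ?_, rfl⟩)
      (relIndex_pos _ _).ne') ?_
    · show π ⁅c, x⁆ = 1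
      rw [commutatorElement_eq_one_iff_mul_comm.2 (mem_cent1.1 hc'.1), map_one]
    · rw [inf_relIndex_right, ← relIndex_top_right]
      exact relIndex_le_of_le_right le_top (relIndex_pos _ _).ne'
  · by_contra hy'
    refine hcH ⟨⟨c, hcC⟩, ?_, rfl⟩
    have := htop (K := C1[π c].comap π) (fun d hd => mem_cent1.2 (hc _ hd _ hcC))
      (mem_cent1.2 (by rw [← map_mul, ← map_mul, mem_cent1.1 hy])) hy' x
    exact (map_commutatorElement π c x).trans (commutatorElement_eq_one_iff_mul_comm.2 (mem_cent1.1 this).symm)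

theorem breadth_max [hp : Fact p.Prime] (hX : IsPGroup p X) (hC : MaxSub C X) (hx : x ∈ X) (hxC : x ∉ C) : ∃ H ≤ C,
    #⁅X, X⁆ ≤ #⁅C, C⁆ * H.relIndex C ∧ H.relIndex C ≤ C1[x].relIndex X ∧
      ∀ c ∈ C, c ∉ H → C1[c].relIndex X = C1[c].relIndex C * p := by
  have : (C.subgroupOf X).Normal := (nil_maximal_normal (pgroup_nil hX) hC).subgroupOf
  obtain ⟨H, h1, h2, h3, h4⟩ := breadth_aux hC.isCoatom (x := ⟨x, hx⟩) hxC
  have e : (C.subgroupOf X).map X.subtype = C := map_subgroupOf_eq_of_le hC.lt.le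
  have e1 : (H.map X.subtype).relIndex C = H.relIndex (C.subgroupOf X) := by
    rw [← relIndex_map_map_of_injective H _ X.subtype_injective, e]
  have e2 : ∀ {y} (hy : y ∈ X), C1[(⟨y, hy⟩ : X)] = C1[y].subgroupOf X := fun hy => by
    ext z; simp only [mem_cent1, mem_subgroupOf, Subtype.ext_iff, coe_mul]
  refine ⟨H.map X.subtype, e ▸ map_mono h1, ?_, by rw [e2 hx] at h3; exact e1 ▸ h3, fun c hc hcH => ?_⟩
  · rwa [← card_map_of_injective X.subtype_injective, ← card_map_of_injective X.subtype_injective (K := ⁅_, _⁆),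
      map_commutator, map_subtype_commutator, e, ← e1] at h2
  · have h5 : C1[c] ⊓ X = C1[c] ⊓ C := le_antisymm (fun y hy => ⟨hy.1,
      h4 ⟨c, hC.lt.le hc⟩ hc (fun h => hcH ⟨_, h, rfl⟩) (show (⟨y, hy.2⟩ : X) ∈ _ from (e2 _).ge hy.1)⟩)
      (inf_le_inf_left _ hC.lt.le)
    rw [← inf_relIndex_right, h5, ← p_maximal_index hX hC, ← relIndex_mul_relIndex _ C X inf_le_right hC.lt.le,
      inf_relIndex_right]

theorem exists_not_mem_two (hA : ¬ X ≤ A) (hB : ¬ X ≤ B) : ∃ x ∈ X, x ∉ A ∧ x ∉ B := by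
  obtain ⟨a, ha, ha'⟩ := SetLike.not_le_iff_exists.1 hA
  obtain ⟨b, hb, hb'⟩ := SetLike.not_le_iff_exists.1 hB
  by_cases h1 : a ∈ B
  · by_cases h2 : b ∈ A
    · exact ⟨a * b, mul_mem ha hb, fun h => ha' ((mul_mem_cancel_right h2).1 h),
        fun h => hb' ((mul_mem_cancel_left h1).1 h)⟩
    · exact ⟨b, hb, h2, hb'⟩
  · exact ⟨a, ha, ha', h1⟩

omit [Finite G] in
theorem mem_of_zpow_mem (hp : p.Prime) {k : ℤ} (h1 : x ^ p ∈ A) (h2 : x ^ k ∈ A) (hk : ¬ (p : ℤ) ∣ k) : x ∈ A := by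
  obtain ⟨u, v, e⟩ := ((Nat.prime_iff_prime_int.1 hp).coprime_iff_not_dvd.2 hk)
  rw [← zpow_one x, ← e, zpow_add, mul_comm u, mul_comm v, zpow_mul, zpow_mul, zpow_natCast]
  exact mul_mem (zpow_mem h1 u) (zpow_mem h2 v)

/-- a third maximal subgroup over the intersection of two -/
theorem exists_third [hp : Fact p.Prime] (hX : IsPGroup p X) (hA : MaxSub A X) (hB : MaxSub B X) (hne : A ≠ B) :
    ∃ C, MaxSub C X ∧ C ⊓ A = A ⊓ B ∧ C ⊓ B = A ⊓ B ∧ MaxSub (A ⊓ B) C ∧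
      (p ≠ 2 → ∃ x ∈ X, x ∉ C ∧ x ∉ A ∧ x ∉ B) := by
  have h1 : ¬ A ≤ B := fun h => hne (hA.max B h hB.lt).symm
  have h2 : ¬ B ≤ A := fun h => hne (hB.max A h hA.lt)
  obtain ⟨a, ha, ha'⟩ := SetLike.not_le_iff_exists.1 h1
  obtain ⟨b, hb, hb'⟩ := SetLike.not_le_iff_exists.1 h2
  have nA := nil_maximal_normal (pgroup_nil hX) hA
  have nB := nil_maximal_normal (pgroup_nil hX) hB
  have hab : a * b ∈ X := mul_mem (hA.lt.le ha) (hB.lt.le hb)
  have hA' : a * b ∉ A := fun h => hb' ((mul_mem_cancel_left ha).1 h)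
  have hB' : a * b ∉ B := fun h => ha' ((mul_mem_cancel_right hb).1 h)
  have hpw : ∀ g ∈ X, g ^ p ∈ A ⊓ B := fun g hg =>
    ⟨Phi_sub_max hA (pow_mem_Phi hX hg), Phi_sub_max hB (pow_mem_Phi hX hg)⟩
  have hg : a * b ∈ A ⊓ B ⊔ zpowers (a * b) := mem_sup_right (mem_zpowers _)
  have hCX : A ⊓ B ⊔ zpowers (a * b) ≤ X := sup_le (inf_le_left.trans hA.lt.le) (zpowers_le.2 hab)
  have hm : MaxSub (A ⊓ B) (A ⊓ B ⊔ zpowers (a * b)) := ⟨lt_of_le_of_ne le_sup_left fun e => hA' (e.ge hg).1,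
    fun Y hY hlt => le_antisymm (fun y hy => by
      obtain ⟨d, hd, _, ⟨k, rfl⟩, rfl⟩ := (mem_sup_norml ((zpowers_le.2 hab).trans (nA.inf nB).norm)).1 (hlt.le hy)
      by_cases hk : (p : ℤ) ∣ k
      · obtain ⟨j, rfl⟩ := hk
        refine mul_mem hd ?_
        simp only [zpow_mul, zpow_natCast]
        exact zpow_mem (hpw _ hab) j
      · exact absurd (sup_le hY (zpowers_le.2 (mem_of_zpow_mem hp.out (hY (hpw _ hab))
          ((mul_mem_cancel_left (hY hd)).1 hy) hk))) hlt.not_ge) hY⟩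
  have eB := hm.max (_ ⊓ B) (le_inf le_sup_left inf_le_right) (lt_of_le_of_ne inf_le_left fun e => hB' (e.ge hg).2)
  refine ⟨_, p_index_maximal hCX ?_, hm.max _ (le_inf le_sup_left inf_le_left)
    (lt_of_le_of_ne inf_le_left fun e => hA' (e.ge hg).2), eB, hm, fun h2 => ⟨a * b * b, mul_mem hab (hB.lt.le hb),
      fun h => hb' (eB.le ⟨(mul_mem_cancel_left hg).1 h, hb⟩).1, fun h => hb' ?_,
      fun h => hB' ((mul_mem_cancel_right hb).1 h)⟩⟩
  · have e1 := relIndex_mul_relIndex _ _ X hm.lt.le hCX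
    rw [← relIndex_mul_relIndex (A ⊓ B) A X inf_le_left hA.lt.le, p_maximal_index hX hA, inf_relIndex_left,
      ← relIndex_sup_normr (hA.lt.le.trans nB.norm), hA.sup_eq hB.lt.le h2, p_maximal_index hX hB,
      p_maximal_index (BG.IsPGroup.sub hX hCX) hm] at e1
    rw [Nat.eq_of_mul_eq_mul_left hp.out.pos e1]; exact hp.out
  · rw [mul_assoc, mul_mem_cancel_left ha] at h
    refine mem_of_zpow_mem hp.out (k := 2) (hpw b (hB.lt.le hb)).1 (by rwa [zpow_two]) fun hd => h2 ?_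
    exact (Nat.prime_dvd_prime_iff_eq hp.out Nat.prime_two).1 (by exact_mod_cast hd)

theorem exists_relIndex_pow [hp : Fact p.Prime] (hX : IsPGroup p X) (A : Subgroup G) : ∃ k, A.relIndex X = p ^ k := by
  obtain ⟨k, hk⟩ := hX.exists_card_eq
  obtain ⟨j, -, hj⟩ := (Nat.dvd_prime_pow hp.out).1 (hk ▸ relIndex_dvd_card A X)
  exact ⟨j, hj⟩

theorem three_le_relIndex_bot [Fact p.Prime] (hX : IsPGroup p X) {k : ℕ} (h : p ^ k < #⁅X, X⁆) :
    3 ≤ (⊥ : Subgroup G).relIndex X := by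
  have h1 : 0 < p ^ k := pow_pos (Fact.out : p.Prime).pos k
  have := proper_card (sol_der1_proper (pgroup_sol hX) fun e => by
    rw [e, commutator_bot_left, card_bot] at h; omega)
  rw [relIndex_bot_left]; omega

theorem exists_breadth [hp : Fact p.Prime] (hX : IsPGroup p X) {n : ℕ} (h : p ^ n.choose 2 < #⁅X, X⁆) (hA : ¬ X ≤ A)
    (hB : 3 ≤ B.relIndex X) : ∃ g ∈ X, g ∉ A ∧ g ∉ B ∧ p ^ n ≤ C1[g].relIndex X := by
  induction hk : #X using Nat.strong_induction_on generalizing X n A B with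
  | _ k ih =>
  subst hk
  have ch : ∀ m : ℕ, (m + 1).choose 2 = m.choose 2 + m := fun m => by
    rw [Nat.choose_succ_succ, Nat.choose_one_right, add_comm]
  have hB' : ¬ X ≤ B := fun e => by rw [relIndex_eq_one.2 e] at hB; omega
  have mono : ∀ {g : G} {Y Z : Subgroup G}, Y ≤ Z → C1[g].relIndex Y ≤ C1[g].relIndex Z := fun h =>
    relIndex_le_of_le_right h (relIndex_pos _ _).ne'
  by_contra hcon
  push Not at hcon
  rcases n with _ | m
  · obtain ⟨g, hg, h1, h2⟩ := exists_not_mem_two hA hB'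
    exact absurd (hcon g hg h1 h2) (not_lt.2 (relIndex_pos C1[g] X))
  replace hcon : ∀ g ∈ X, g ∉ A → g ∉ B → C1[g].relIndex X ≤ p ^ m := fun g hg h1 h2 => by
    have := hcon g hg h1 h2
    obtain ⟨j, hj⟩ := exists_relIndex_pow hX C1[g]
    rw [hj, Nat.pow_lt_pow_iff_right hp.out.one_lt] at this
    exact hj ▸ Nat.pow_le_pow_right hp.out.pos (by omega)
  obtain ⟨A1, hA1, mA⟩ := maxSub_exists (lt_of_le_of_ne inf_le_right fun e => hA (e.ge.trans inf_le_left) : A ⊓ X < X)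
  obtain ⟨M, mM, hne, hBM⟩ : ∃ M, MaxSub M X ∧ A1 ≠ M ∧ (B ⊓ X ≤ M ∨ B ⊓ X ≤ A1) := by
    by_cases e : B ⊓ X ≤ A1
    · obtain ⟨g, hg, hg'⟩ := SetLike.exists_of_lt mA.lt
      obtain ⟨M, h1, h2⟩ := maxSub_exists (lt_of_le_of_ne (zpowers_le.2 hg) fun e => by
        rw [← e, commutator_eq_bot_iff_le_centralizer.2 (IsMulCommutative.cent inferInstance), card_bot] at h
        exact absurd h (Nat.one_le_pow _ _ hp.out.pos).not_gt)
      exact ⟨M, h2, fun e => hg' (e ▸ h1 (mem_zpowers g)), Or.inr e⟩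
    · obtain ⟨M, h1, h2⟩ := maxSub_exists (lt_of_le_of_ne inf_le_right fun e => hB' (e.ge.trans inf_le_left) : B ⊓ X < X)
      exact ⟨M, h2, fun e' => e (e' ▸ h1), Or.inl h1⟩
  obtain ⟨C, mC, eA, eM, mD, hodd⟩ := exists_third hX mA mM hne
  have hC := BG.IsPGroup.sub hX mC.lt.le
  have hD : ∀ g ∈ C, g ∉ A1 ⊓ M → C1[g].relIndex X ≤ p ^ m := fun g hg h1 => hcon g (mC.lt.le hg)
    (fun h2 => h1 (eA.le ⟨hg, hA1 ⟨h2, mC.lt.le hg⟩⟩)) fun h2 => hBM.elim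
      (fun e => h1 (eM.le ⟨hg, e ⟨h2, mC.lt.le hg⟩⟩)) fun e => h1 (eA.le ⟨hg, e ⟨h2, mC.lt.le hg⟩⟩)
  obtain ⟨x, hx, hxC, hxA, hxB⟩ : ∃ x ∈ X, x ∉ C ∧ x ∉ A1 ∧ x ∉ B := by
    by_cases e : M ≤ B
    · have := relIndex_le_of_le_left e (relIndex_pos M X).ne'
      rw [p_maximal_index hX mM] at this
      obtain ⟨x, hx, h1, h2, h3⟩ := hodd (by omega)
      exact ⟨x, hx, h1, h2, fun h4 => hBM.elim (fun e => h3 (e ⟨h4, hx⟩)) fun e => h2 (e ⟨h4, hx⟩)⟩
    · obtain ⟨x, hx, h1, h2⟩ := exists_not_mem_two (fun h => hne (mM.max A1 h mA.lt)) e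
      exact ⟨x, mM.lt.le hx, fun h => h1 (eM.le ⟨h, hx⟩).1, h1, h2⟩
  obtain ⟨H, hHC, l1, l2, l3⟩ := breadth_max hX mC hx hxC
  replace l2 := l2.trans (hcon x hx (fun h => hxA (hA1 ⟨h, hx⟩)) hxB)
  have ihC := fun n A B h1 h2 h3 => @ih _ (proper_card mC.lt) C A B hC n h1 h2 h3 rfl
  have l4 : p ^ m.choose 2 < #⁅C, C⁆ := by
    rw [ch, pow_add] at h
    exact Nat.lt_of_mul_lt_mul_right (h.trans_le (l1.trans (Nat.mul_le_mul_left _ l2)))
  have l5 : ∀ g ∈ C, g ∉ A1 ⊓ M → g ∉ H → C1[g].relIndex C * p ≤ p ^ m := fun g hg h1 h2 => l3 g hg h2 ▸ hD g hg h1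
  have l6 : ∀ g ∈ C, g ∉ A1 ⊓ M → g ∉ H → ¬ p ^ m ≤ C1[g].relIndex C := fun g hg h1 h2 h3 => by
    have := (Nat.mul_le_mul_right p h3).trans (l5 g hg h1 h2)
    rw [← pow_succ, Nat.pow_le_pow_iff_right hp.out.one_lt] at this
    omega
  by_cases r3 : 3 ≤ H.relIndex C
  · obtain ⟨g, hg, h1, h2, h3⟩ := ihC m _ H l4 mD.lt.not_ge r3
    exact l6 g hg h1 h2 h3
  by_cases hHD : H ≤ A1 ⊓ M
  · obtain ⟨g, hg, h1, -, h3⟩ := ihC m _ ⊥ l4 mD.lt.not_ge (three_le_relIndex_bot hC l4)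
    exact l6 g hg h1 (fun h => h1 (hHD h)) h3
  by_cases r1 : H.relIndex C = 1
  · rw [r1, mul_one] at l1
    obtain ⟨g, hg, h1, -, h3⟩ := ihC (m + 1) _ ⊥ (h.trans_le l1) mD.lt.not_ge (three_le_relIndex_bot hC l4)
    have := h3.trans ((mono mC.lt.le).trans (hD g hg h1))
    rw [Nat.pow_le_pow_iff_right hp.out.one_lt] at this
    omega
  have r2 : H.relIndex C = 2 := by have := relIndex_pos H C; omega
  obtain rfl : p = 2 := by
    obtain ⟨j, hj⟩ := exists_relIndex_pow hC H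
    exact ((Nat.prime_dvd_prime_iff_eq Nat.prime_two hp.out).1 (Nat.prime_two.dvd_of_dvd_pow (hj.symm.trans r2).symm.dvd)).symm
  rw [r2] at l1 l2
  obtain ⟨l, rfl⟩ : ∃ l, m = l + 1 := ⟨m - 1, by rcases m with _ | m <;> simp at l2 ⊢⟩
  obtain ⟨E, mE, eD, eH, mK, -⟩ := exists_third hC mD (p_index_maximal hHC (r2 ▸ Nat.prime_two)) fun e => hHD e.ge
  have hE := BG.IsPGroup.sub hC mE.lt.le
  obtain ⟨y, hy, hy'⟩ := SetLike.not_le_iff_exists.1 hHD
  obtain ⟨H', -, k1, k2, k3⟩ := breadth_max hC mE (hHC hy) fun h => hy' (eH.le ⟨h, hy⟩).1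
  replace k2 := k2.trans ((mono mC.lt.le).trans (hD y (hHC hy) hy'))
  have ihE := fun n A B h1 h2 h3 => @ih _ (proper_card (mE.lt.trans mC.lt)) E A B hE n h1 h2 h3 rfl
  have k4 : ∀ g ∈ E, g ∉ A1 ⊓ M ⊓ H → C1[g].relIndex C ≤ 2 ^ l := fun g hg h1 => by
    have := l5 g (mE.lt.le hg) (fun h => h1 (eD.le ⟨hg, h⟩)) fun h => h1 (eH.le ⟨hg, h⟩)
    omega
  have k5 : 2 ^ (l + 1).choose 2 * 2 ^ (l + 1) ≤ #⁅E, E⁆ * H'.relIndex E := by
    obtain ⟨j, hj⟩ := (BG.IsPGroup.sub hC (commutator_le_self C)).exists_card_eq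
    have := h.trans_le l1
    rw [hj, ← pow_succ, Nat.pow_lt_pow_iff_right one_lt_two, ch] at this
    rw [← pow_add]
    exact (Nat.pow_le_pow_right two_pos (by omega)).trans (hj.ge.trans k1)
  have k6 : #⁅E, E⁆ ≤ 2 ^ (l + 1).choose 2 := by
    by_contra hlt
    obtain ⟨g, hg, h1, -, h3⟩ := ihE (l + 1) _ ⊥ (not_le.1 hlt) mK.lt.not_ge (three_le_relIndex_bot hE (not_le.1 hlt))
    have := h3.trans ((mono mE.lt.le).trans (k4 g hg h1))
    rw [Nat.pow_le_pow_iff_right one_lt_two] at this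
    omega
  have k7 : 2 ^ (l + 1) ≤ H'.relIndex E :=
    Nat.le_of_mul_le_mul_left (k5.trans (Nat.mul_le_mul_right _ k6)) (by positivity)
  have k8 : 2 ^ (l + 1).choose 2 ≤ #⁅E, E⁆ :=
    Nat.le_of_mul_le_mul_right (k5.trans (Nat.mul_le_mul_left _ k2)) (by positivity)
  obtain ⟨g, hg, h1, h2, h3⟩ : ∃ g ∈ E, g ∉ A1 ⊓ M ⊓ H ∧ g ∉ H' ∧ 2 ^ l ≤ C1[g].relIndex E := by
    rcases l with _ | l
    · obtain ⟨g, hg, h1, h2⟩ := exists_not_mem_two mK.lt.not_ge fun e : E ≤ H' => by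
        rw [relIndex_eq_one.2 e] at k7; omega
      exact ⟨g, hg, h1, h2, relIndex_pos _ _⟩
    · refine ihE _ _ _ (lt_of_lt_of_le (Nat.pow_lt_pow_right one_lt_two (by rw [ch (l + 1)]; omega)) k8) mK.lt.not_ge
        (le_trans ?_ k7)
      have := Nat.one_le_two_pow (n := l)
      omega
  have := k4 g hg h1
  rw [k3 g hg h2] at this
  have := Nat.one_le_two_pow (n := l)
  omega

end Cfsg.Agent.LieM
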