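import Cfsg.Agent.LieM.Assoc
import Cfsg.Agent.Gen.ThompsonNil
import Cfsg.Agent.Gen2.QuotAut
import Cfsg.Agent.PGrp.MaxClassP
import Cfsg.Agent.PLocal.PSolv

/-!
Automorphisms of prime order with few fixed points (helper2): `lcs_eq_bot_of_fpf` (Higman–Kreknin–Kostrikin
bound for a fixed-point-free automorphism), `card_fix_quot_le` (`|C_{G/K}(α)| ≤ |C_G(α)|`), P. Hall's
`pow_le_relIndex`, Alperin's bounds `der_pgroup`, `der_charP` for the derived length.
-/

namespace Cfsg.Agent.LieM

open Subgroup Cfsg.Agent.BG Cfsg.Agent.Gen2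
open scoped commutatorElement

variable {G : Type*} [Group G] {p : ℕ}

/-- the fixed points of an automorphism -/
def fix (α : MulAut G) : Subgroup G := α.toMonoidHom.eqLocus (MonoidHom.id G)

theorem mem_fix {α : MulAut G} {a : G} : a ∈ fix α ↔ α a = a := Iff.rfl

theorem card_fixMod_le [Finite G] (α : MulAut G) (P : G → Prop) :
    Nat.card {a // P (a⁻¹ * α a)} ≤ Nat.card {b // P b} * Nat.card (fix α) := by
  classical
  have hs : ∀ a : G, ∃ s : G, s⁻¹ * α s = a⁻¹ * α a := fun a => ⟨a, rfl⟩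
  let s : G → G := fun b => if h : ∃ s : G, s⁻¹ * α s = b then h.choose else 1
  have h1 : ∀ a, (s (a⁻¹ * α a))⁻¹ * α (s (a⁻¹ * α a)) = a⁻¹ * α a := fun a => by
    simp only [s, dif_pos (hs a)]; exact (hs a).choose_spec
  rw [← Nat.card_prod]
  refine Nat.card_le_card_of_injective (fun a => (⟨_, a.2⟩, ⟨a.1 * (s (a.1⁻¹ * α a.1))⁻¹, mem_fix.2 ?_⟩)) ?_
  · have := h1 a.1
    generalize s (a.1⁻¹ * α a.1) = t at this
    rw [map_mul, map_inv, show α t = t * (a.1⁻¹ * α a.1) by rw [← this]; group]; group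
  · intro a b h
    have h2 : a.1⁻¹ * α a.1 = b.1⁻¹ * α b.1 := congrArg (fun x => x.1.1) h
    have h3 : a.1 * (s (a.1⁻¹ * α a.1))⁻¹ = b.1 * (s (b.1⁻¹ * α b.1))⁻¹ := congrArg (fun x => x.2.1) h
    rw [h2] at h3
    exact Subtype.ext (mul_right_cancel h3)

theorem mk_mem_fix {K : Subgroup G} [K.Characteristic] {α : MulAut G} {a : G} :
    (a : G ⧸ K) ∈ fix (quotAut K α) ↔ a⁻¹ * α a ∈ K := by
  rw [mem_fix, quotAut_mk, eq_comm, QuotientGroup.eq]

theorem card_fix_quot_le [Finite G] (K : Subgroup G) [K.Characteristic] (α : MulAut G) :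
    Nat.card (fix (quotAut K α)) ≤ Nat.card (fix α) := by
  have h1 := card_fixMod_le α (· ∈ K)
  have h2 := QuotientGroup.card_preimage_mk K (fix (quotAut K α) : Set (G ⧸ K))
  exact Nat.le_of_mul_le_mul_left (h2.ge.trans ((Nat.card_congr (Equiv.subtypeEquivRight (q := fun a => a⁻¹ * α a ∈ K)
    fun a => mk_mem_fix)).le.trans h1)) Nat.card_pos

theorem card_fix_char_le [Finite G] (H : Subgroup G) [H.Characteristic] (α : MulAut G) :
    Nat.card (fix (MulAut.characteristic H α)) ≤ Nat.card (fix α) :=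
  Nat.card_le_card_of_injective (fun a => ⟨a.1.1, congrArg Subtype.val (mem_fix.1 a.2)⟩)
    fun _ _ h => Subtype.ext (Subtype.ext (congrArg (fun x : fix α => (x : G)) h))

theorem sub_one_pow_eq_zero {R : Type*} [Ring R] (hp : p.Prime) {a : R} (ha : a ^ p = 1) {e : ℕ}
    (he : ((p ^ e : ℕ) : R) = 0) : (a - 1) ^ (p * e) = 0 := by
  obtain ⟨r, hr⟩ := (Commute.one_right (a - 1)).exists_add_pow_prime_eq hp
  rw [sub_add_cancel, ha, one_pow, mul_one] at hr
  have h1 : (a - 1) ^ p = p * -((a - 1) * r) := by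
    rw [mul_neg, ← mul_assoc, eq_neg_iff_add_eq_zero, ← add_left_inj 1, zero_add]
    exact (add_right_comm _ _ _).trans hr.symm
  rw [pow_mul, h1, (Nat.cast_commute p _).mul_pow, ← Nat.cast_pow, he, zero_mul]

theorem card_le_pow_fix [Finite G] [hp : Fact p.Prime] (hc : ∀ a b : G, a * b = b * a) {α : MulAut G}
    (hα : α ^ p = 1) {e : ℕ} (he : ∀ a : G, a ^ p ^ e = 1) : Nat.card G ≤ Nat.card (fix α) ^ (p * e) := by
  letI : CommGroup G := { ‹Group G› with mul_comm := hc }
  let a : AddMonoid.End (Additive G) := MonoidHom.toAdditive α.toMonoidHom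
  have ha : ∀ k x, (a ^ k) (Additive.ofMul x) = Additive.ofMul ((α ^ k) x) := fun k => by
    induction k with
    | zero => intro; rfl
    | succ k ih => intro x; rw [pow_succ, pow_succ]; exact ih (α x)
  have hap : a ^ p = 1 := AddMonoidHom.ext fun x => (ha p x.toMul).trans (by rw [hα]; rfl)
  have h2 : (a - 1) ^ (p * e) = 0 := sub_one_pow_eq_zero hp.out hap (AddMonoidHom.ext fun x => he x.toMul)
  have h3 : ∀ k, Nat.card {x : G // ((a - 1) ^ k) (Additive.ofMul x) = 0} ≤ Nat.card (fix α) ^ k := fun k => by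
    induction k with
    | zero =>
      rw [pow_zero, pow_zero, Finite.card_le_one_iff_subsingleton]
      exact ⟨fun x y => Subtype.ext ((show x.1 = 1 from x.2).trans (show y.1 = 1 from y.2).symm)⟩
    | succ k ih =>
      have := card_fixMod_le α fun x => ((a - 1) ^ k) (Additive.ofMul x) = 0
      rw [pow_succ (Nat.card _)]
      refine le_trans (Nat.card_congr (Equiv.subtypeEquivRight fun x => ?_)).le (this.trans (Nat.mul_le_mul_right _ ih))
      rw [pow_succ, show Additive.ofMul (x⁻¹ * α x) = (a - 1) (Additive.ofMul x) from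
        congrArg Additive.ofMul ((hc _ _).trans (div_eq_mul_inv _ _).symm)]
      rfl
  have := h3 (p * e)
  exact (Nat.card_congr (Equiv.subtypeUnivEquiv fun _ => by rw [h2]; rfl)).ge.trans this

theorem pow_mem_of_fixMod [Finite G] [hp : Fact p.Prime] (hG : IsPGroup p G) {α : MulAut G} {n : ℕ}
    (h : Nat.card (fix α) ≤ p ^ n) (K : Subgroup G) [K.Characteristic] {a : G} (ha : a⁻¹ * α a ∈ K) :
    a ^ p ^ n ∈ K := by
  obtain ⟨k, hk⟩ := ((hG.to_quotient K).to_subgroup (fix (quotAut K α))).exists_card_eq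
  have h1 := (card_fix_quot_le K α).trans h
  rw [hk, Nat.pow_le_pow_iff_right hp.out.one_lt] at h1
  have h2 := pow_card_eq_one' (x := (⟨a, mk_mem_fix.2 ha⟩ : fix (quotAut K α)))
  rw [hk, Subtype.ext_iff] at h2
  obtain ⟨j, rfl⟩ := Nat.exists_eq_add_of_le h1
  rw [← QuotientGroup.eq_one_iff, QuotientGroup.mk_pow, pow_add, pow_mul, show (a : G ⧸ K) ^ p ^ k = 1 from h2, one_pow]

/-- the Higman–Kreknin–Kostrikin number -/
def hk (p : ℕ) : ℕ := xi p (2 ^ (p - 1) - 1)

theorem lcs_eq_bot_of_fpf [Finite G] [hp : Fact p.Prime] {α : MulAut G} (hα : α ^ p = 1)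
    (h : ∀ g, α g = g → g = 1) : γ G (hk p) = ⊥ := by
  rcases (Nat.dvd_prime hp.out).1 (orderOf_dvd_of_pow_eq_one hα) with h1 | h1
  · exact (eq_bot_iff_forall _).2 fun g _ => h g (by rw [orderOf_eq_one_iff.1 h1]; rfl)
  have hn := Gen.nil_of_fpf_aut α h (h1 ▸ hp.out)
  have hf : fix α = ⊥ := (eq_bot_iff_forall _).2 h
  have hc : p.Coprime (Nat.card G) := by
    have h2 : IsPGroup p (zpowers α) := IsPGroup.of_card (n := 1) (by rw [Nat.card_zpowers, h1, pow_one])
    have h3 := h2.card_modEq_card_fixedPoints G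
    rw [show MulAction.fixedPoints (zpowers α) G = {1} from Set.eq_singleton_iff_unique_mem.2
      ⟨fun a => map_one a.1, fun g hg => h g (hg ⟨α, mem_zpowers α⟩)⟩, Nat.card_coe_set_eq, Set.ncard_singleton] at h3
    exact hp.out.coprime_iff_not_dvd.2 fun hd => hp.out.one_lt.ne' (Nat.dvd_one.1 ((h3.dvd_iff dvd_rfl).1 hd))
  refine nil_comm_trivg (M := ⊤) (A := ⊤) inferInstance le_top le_top fun a ha => ?_
  have := pow_mem_lcs_succ α hα 1 (fun n a _ h2 => by
    have h3 := card_fix_quot_le (γ G (n + 1)) α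
    rw [hf, card_bot, Finite.card_le_one_iff_subsingleton] at h3
    have := congrArg Subtype.val (h3.elim ⟨a, mk_mem_fix.2 h2⟩ 1)
    rwa [pow_one, ← QuotientGroup.eq_one_iff]) ha
  rw [one_mul] at this
  exact (mem_zpowers_pow_iff.2 ((hc.pow_left _).coprime_dvd_right (orderOf_dvd_natCard a))
    |> zpowers_le.2 this)

/-- `H, ⁅H, G⁆, ⁅H, G, G⁆, …` -/
def cs (H : Subgroup G) : ℕ → Subgroup G
  | 0 => H
  | k + 1 => ⁅cs H k, ⊤⁆

theorem cs_succ' (H : Subgroup G) (k : ℕ) : cs H (k + 1) = cs ⁅H, ⊤⁆ k := by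
  induction k with
  | zero => rfl
  | succ k ih => rw [cs, ih]; rfl

instance cs_normal (H : Subgroup G) [H.Normal] (k : ℕ) : (cs H k).Normal := by
  induction k with
  | zero => assumption
  | succ k ih => exact commutator_normal _ _

theorem comm_γ_le (k : ℕ) : ∀ (H : Subgroup G) [H.Normal], ⁅H, γ G k⁆ ≤ cs H (k + 1) := by
  induction k with
  | zero => intro H _; exact le_rfl
  | succ k ih =>
    intro H _
    rw [Subgroup.commutator_comm]
    refine Loc.three_subgroups_of_normal ?_ (commutator_mono (ih H) le_rfl)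
    rw [Subgroup.commutator_comm ⊤, cs_succ']
    exact ih _

theorem card_cs [Finite G] [hp : Fact p.Prime] (hG : IsPGroup p G) (H : Subgroup G) [H.Normal] (k : ℕ)
    (h : cs H k ≠ ⊥) : p ^ k * Nat.card (cs H k) ≤ Nat.card H := by
  have := hG.isNilpotent
  induction k with
  | zero => simp [cs]
  | succ k ih =>
    have hne : cs H k ≠ ⊥ := fun e => h (by rw [cs, e, commutator_bot_left])
    have hlt := nil_comm_properl (M := ⊤) (A := ⊤) inferInstance le_top hne le_top (normal_top _).norm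
    rw [pow_succ, mul_assoc]
    exact (Nat.mul_le_mul_left _ (PGrp.mul_card_le_of_lt hG hlt)).trans (ih hne)

/-- P. Hall -/
theorem pow_le_relIndex [Finite G] [hp : Fact p.Prime] (hG : IsPGroup p G) {H N : Subgroup G} [H.Normal] {k : ℕ}
    (hN : N ≤ γ G k) (h : ⁅H, N⁆ ≠ ⊥) : p ^ (k + 1) ≤ ⁅H, N⁆.relIndex H := by
  have h1 : ⁅H, N⁆ ≤ cs H (k + 1) := (commutator_mono le_rfl hN).trans (comm_γ_le k H)
  have h2 := card_cs hG H (k + 1) fun e => h (le_bot_iff.1 (h1.trans e.le))
  have h3 : ⁅H, N⁆ ≤ H := commutator_le_left _ _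
  rw [← card_mul_index (⁅H, N⁆.subgroupOf H), Nat.card_congr (subgroupOfEquivOfLe h3).toEquiv, mul_comm (Nat.card _)] at h2
  exact Nat.le_of_mul_le_mul_right ((Nat.mul_le_mul_left _ (card_le_of_le h1)).trans h2) Nat.card_pos

theorem relIndex_γ_le [Finite G] [hp : Fact p.Prime] (hG : IsPGroup p G) {α : MulAut G} (hα : α ^ p = 1) {n : ℕ}
    (h : Nat.card (fix α) ≤ p ^ n) : (γ G (hk p + 1)).relIndex (γ G (hk p)) ≤ p ^ (n * (p * (n + hk p + 1))) := by
  have e : γ (G ⧸ γ G (hk p + 1)) (hk p) = (γ G (hk p)).map (QuotientGroup.mk' _) := by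
    rw [map_lowerCentralSeries, map_top_of_surjective _ (QuotientGroup.mk'_surjective _)]
  rw [← PLocal.card_map_mk', ← e, pow_mul]
  refine (card_le_pow_fix (α := MulAut.characteristic _ (quotAut _ α)) (e := n + hk p + 1) ?_
    (by rw [← map_pow, ← map_pow, hα, map_one, map_one]) ?_).trans
    (Nat.pow_le_pow_left ((card_fix_char_le _ _).trans ((card_fix_quot_le _ _).trans h)) _)
  · rintro ⟨a, ha⟩ ⟨b, -⟩
    obtain ⟨a, ha', rfl⟩ := e.le ha
    obtain ⟨b, rfl⟩ := QuotientGroup.mk_surjective b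
    refine Subtype.ext (commutatorElement_eq_one_iff_mul_comm.1 ?_)
    exact (QuotientGroup.eq_one_iff ⁅a, b⁆).2 (γ_comm' ha' b)
  · rintro ⟨a, ha⟩
    obtain ⟨a, ha', rfl⟩ := e.le ha
    have := pow_mem_lcs_succ α hα (p ^ n) (fun k a _ h2 => pow_mem_of_fixMod hG h _ h2) ha'
    rw [← pow_add, ← add_assoc] at this
    exact Subtype.ext ((QuotientGroup.eq_one_iff (a ^ _)).2 this)

theorem der_add_eq_bot {N : Subgroup G} {a b : ℕ} (h1 : derivedSeries G a ≤ N) (h2 : derivedSeries N b = ⊥) :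
    derivedSeries G (a + b) = ⊥ := by
  have : ∀ k, derivedSeries G (a + k) ≤ (derivedSeries N k).map N.subtype := fun k => by
    induction k with
    | zero => rwa [derivedSeries_zero, ← MonoidHom.range_eq_map, range_subtype]
    | succ k ih => rw [← add_assoc, derivedSeries_succ, derivedSeries_succ, map_commutator]; exact commutator_mono ih ih
  exact le_bot_iff.1 ((this b).trans (by rw [h2, Subgroup.map_bot]))

theorem der_le_ker {H : Type*} [Group H] (f : G →* H) {a : ℕ} (h : derivedSeries H a = ⊥) :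
    derivedSeries G a ≤ f.ker :=
  (Subgroup.map_eq_bot_iff _).1 (le_bot_iff.1 ((map_derivedSeries_le_derivedSeries f a).trans h.le))

theorem der_eq_bot_of_card [Finite G] [Group.IsSolvable G] {m : ℕ} (h : Nat.card G ≤ m) : derivedSeries G m = ⊥ := by
  have : ∀ k, derivedSeries G k = ⊥ ∨ Nat.card (derivedSeries G k) + k ≤ Nat.card G := fun k => by
    induction k with
    | zero => exact Or.inr (by simp)
    | succ k ih =>
      by_cases e : derivedSeries G k = ⊥
      · exact Or.inl (by rw [derivedSeries_succ, e, commutator_bot_left])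
      · have := proper_card (Solv.commutator_lt_of_isSolvable e)
        have := ih.resolve_left e
        exact Or.inr (by rw [derivedSeries_succ]; omega)
  refine (this m).resolve_right fun h2 => ?_
  have : 0 < Nat.card (derivedSeries G m) := Nat.card_pos
  omega

theorem der_pgroup [Finite G] [hp : Fact p.Prime] (hG : IsPGroup p G) {α : MulAut G} (hα : α ^ p = 1) {n : ℕ}
    (h : Nat.card (fix α) ≤ p ^ n) : derivedSeries G (n * (p * (n + hk p + 1)) + (hk p + 1)) = ⊥ := by
  refine der_add_eq_bot (Subgroup.derived_le_lower_central _) (le_bot_iff.1 ((Subgroup.derived_le_lower_central _).trans ?_))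
  generalize hb : n * (p * (n + hk p + 1)) = b
  have h1 := relIndex_γ_le (hG.to_subgroup (γ G b)) (α := MulAut.characteristic _ α)
    (by rw [← map_pow, hα, map_one]) ((card_fix_char_le _ _).trans h)
  rw [← relIndex_map_map_of_injective _ _ (γ G b).subtype_injective, top_subtype_lowerCentralSeries,
    top_subtype_lowerCentralSeries, hb] at h1
  rw [le_bot_iff, ← map_subtype_inj, Subgroup.map_bot, top_subtype_lowerCentralSeries]
  by_contra hne
  have := (pow_le_relIndex hG (H := (γ G b).lowerCentralSeries (hk p)) le_rfl hne).trans h1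
  rw [Nat.pow_le_pow_iff_right hp.out.one_lt] at this
  omega

theorem der_charP [Finite G] [Group.IsSolvable G] [hp : Fact p.Prime] (hO : pPrimeCore p G = ⊥) {α : MulAut G}
    (hα : α ^ p = 1) {n : ℕ} (h : Nat.card (fix α) ≤ p ^ n) :
    derivedSeries G (((p ^ n) ^ (p * 1)).factorial + (n * (p * (n + hk p + 1)) + (hk p + 1))) = ⊥ := by
  have hP := Solv.isPGroup_pCore p G
  have h1 := (card_fix_char_le (pCore p G) α).trans h
  have h2 : MulAut.characteristic (pCore p G) α ^ p = 1 := by rw [← map_pow, hα, map_one]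
  refine der_add_eq_bot ?_ (der_pgroup hP h2 h1)
  let f := (quotAut (frattini (pCore p G))).comp (MulAut.conjNormal (H := pCore p G))
  have h3 : Nat.card (pCore p G ⧸ frattini (pCore p G)) ≤ (p ^ n) ^ (p * 1) := by
    have := hP.isNilpotent
    refine (card_le_pow_fix (α := quotAut _ (MulAut.characteristic _ α)) (e := 1) (fun a b => ?_)
      (by rw [← map_pow, h2, map_one]) fun a => ?_).trans (Nat.pow_le_pow_left ((card_fix_quot_le _ _).trans h1) _)
    · obtain ⟨a, rfl⟩ := QuotientGroup.mk_surjective a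
      obtain ⟨b, rfl⟩ := QuotientGroup.mk_surjective b
      exact commutatorElement_eq_one_iff_mul_comm.1 ((QuotientGroup.eq_one_iff ⁅a, b⁆).2
        (Solv.commutator_le_frattini (commutator_mem_commutator (mem_top a) (mem_top b))))
    · obtain ⟨a, rfl⟩ := QuotientGroup.mk_surjective a
      rw [pow_one]
      exact (QuotientGroup.eq_one_iff (a ^ p)).2 (Solv.pow_mem_frattini hP a)
  have : Group.IsSolvable f.range := Group.isSolvable_of_surjective f.rangeRestrict_surjective
  have h4 : Nat.card f.range ≤ ((p ^ n) ^ (p * 1)).factorial :=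
    ((Nat.card_le_card_of_injective _ (f.range.subtype_injective)).trans
      (Nat.card_le_card_of_injective _ MulEquiv.toEquiv_injective)).trans (Nat.card_perm.le.trans (Nat.factorial_le h3))
  refine (der_le_ker f.rangeRestrict (der_eq_bot_of_card h4)).trans ?_
  rw [MonoidHom.ker_rangeRestrict]
  refine Solv.le_pCore (IsPGroup.iff_card.2 ⟨_, Nat.eq_prime_pow_of_unique_prime_dvd Nat.card_pos.ne' fun {q} hq hd => ?_⟩)
  haveI := Fact.mk hq
  obtain ⟨x, hx⟩ := exists_prime_orderOf_dvd_card' q hd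
  by_contra hne
  have hx' : orderOf (x : G) = q := by rw [orderOf_coe, hx]
  obtain ⟨k, hk⟩ := hP.exists_card_eq
  have hc : (Nat.card (pCore p G)).Coprime (Nat.card (zpowers (x : G))) := by
    rw [hk, Nat.card_zpowers, hx']
    exact ((Nat.coprime_primes hp.out hq).2 (Ne.symm hne)).pow_left _
  have h5 : zpowers (x : G) ≤ pCore p G := (coprime_cent_Phi (le_top.trans (normal_top _).norm) hc
    (commutator_le.2 fun a ha y hy => by
      have := mem_ker_quotAut.1 ((zpowers_le.2 x.2 : zpowers (x : G) ≤ f.ker) hy) ⟨a, ha⟩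
      refine ⟨_, inv_mem this, ?_⟩
      simp [commutatorElement_def, mul_assoc])).trans (Solv.centralizer_pCore_le hO)
  have := Nat.Coprime.eq_one_of_dvd hc.symm (card_dvd_of_le h5)
  rw [Nat.card_zpowers, hx'] at this
  exact hq.one_lt.ne' this

end Cfsg.Agent.LieM
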